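-- Team project OELL (S5993): odd-dimensional orthogonal groups and elliptic m-spaces.
-- Interface file (helper55): the package statements that OELL needs on top of helper23's OHYP
-- interface (Cfsg.Agent.Lib.Helper23.OHyp.Defs).
import Cfsg.Agent.Lib.Helper23.OHyp.Defs

set_option autoImplicit false
open scoped MatrixGroups
open Matrix

namespace Cfsg.Agent.Lib.Helper55.OEll

open Cfsg.Agent.Lib.Helper23.OHyp

universe u

/-- [INVOLG] generic involution package: an isometry with `x ^ 2 = 1` fixes a nondegenerate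
`m`-space of either type (only plus type for `m = 0`). -/
def PkgInvolG : Prop :=
  ∀ (F : Type u) [Field F] [Fintype F] (ι : Type) [Fintype ι] [DecidableEq ι]
    (Q : (ι → F) → F), Cfsg.Geo.IsNondegenerateQuadraticForm Q → (2 : F) ≠ 0 →
    ∀ x : GL ι F, x ∈ Cfsg.isometryGroup F Q → x ^ 2 = 1 →
    ∀ (m : ℕ) (ε : Prop), Even m → m + 1 ≤ Fintype.card ι → 3 ≤ Fintype.card ι → (m = 0 → ε) →
      ∃ W : Submodule F (ι → F), Module.finrank F W = m ∧
        Cfsg.Geo.IsNondegenerateOn (QuadraticMap.polar Q) W ∧ (Cfsg.Geo.IsPlusTypeOn Q W ↔ ε) ∧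
        W.map (Matrix.toLin' (x : Matrix ι ι F)) ≤ W

/-- [INVOLM] the elliptic case of [INVOLG] (what the OELL assembly uses). -/
def PkgInvolM : Prop :=
  ∀ (F : Type u) [Field F] [Fintype F] (ι : Type) [Fintype ι] [DecidableEq ι]
    (Q : (ι → F) → F), Cfsg.Geo.IsNondegenerateQuadraticForm Q → (2 : F) ≠ 0 →
    ∀ x : GL ι F, x ∈ Cfsg.isometryGroup F Q → x ^ 2 = 1 →
    ∀ m : ℕ, Even m → 2 ≤ m → m + 1 ≤ Fintype.card ι →
      ∃ W : Submodule F (ι → F), (Module.finrank F W = m ∧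
        Cfsg.Geo.IsNondegenerateOn (QuadraticMap.polar Q) W ∧ ¬ Cfsg.Geo.IsPlusTypeOn Q W) ∧
        W.map (Matrix.toLin' (x : Matrix ι ι F)) ≤ W

/-- [CNTG] generic count package: for `m < c`, `m < n mod c` the number of nondegenerate
`m`-spaces of a fixed type is prime to `r`. -/
def PkgCntG : Prop :=
  ∀ (F : Type u) [Field F] [Fintype F] (ι : Type) [Fintype ι] [DecidableEq ι]
    (Q : (ι → F) → F), Cfsg.Geo.IsNondegenerateQuadraticForm Q → (2 : F) ≠ 0 →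
    Odd (Fintype.card ι) →
    ∀ (r : ℕ), r.Prime → r ≠ 2 → ¬ r ∣ Fintype.card F →
    ∀ (m : ℕ) (ε : Prop), Even m → (m = 0 → ε) → m < cc (Fintype.card F) r →
      m < Fintype.card ι % cc (Fintype.card F) r →
      ¬ r ∣ Nat.card {W : Submodule F (ι → F) // Module.finrank F ↥W = m ∧
        Cfsg.Geo.IsNondegenerateOn (QuadraticMap.polar Q) W ∧ (Cfsg.Geo.IsPlusTypeOn Q W ↔ ε)}

/-- [CNTM] the elliptic case of [CNTG] (what the OELL assembly uses). -/
def PkgCntM : Prop :=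
  ∀ (F : Type u) [Field F] [Fintype F] (ι : Type) [Fintype ι] [DecidableEq ι]
    (Q : (ι → F) → F), Cfsg.Geo.IsNondegenerateQuadraticForm Q → (2 : F) ≠ 0 →
    Odd (Fintype.card ι) →
    ∀ (r : ℕ), r.Prime → r ≠ 2 → ¬ r ∣ Fintype.card F →
    ∀ (m : ℕ), Even m → 2 ≤ m → m < cc (Fintype.card F) r →
      m < Fintype.card ι % cc (Fintype.card F) r →
      ¬ r ∣ Nat.card {W : Submodule F (ι → F) // Module.finrank F ↥W = m ∧
        Cfsg.Geo.IsNondegenerateOn (QuadraticMap.polar Q) W ∧ ¬ Cfsg.Geo.IsPlusTypeOn Q W}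

/-- [ELLISO] two nondegenerate subspaces of the same even dimension which are both not of plus
type are isometric (used for Witt transitivity in [CNTM]). -/
def PkgEllIso : Prop :=
  ∀ (F : Type u) [Field F] [Fintype F] (ι : Type) [Fintype ι] [DecidableEq ι]
    (Q : (ι → F) → F), Cfsg.Geo.IsNondegenerateQuadraticForm Q → (2 : F) ≠ 0 →
    ∀ W W' : Submodule F (ι → F), Nd Q W → Nd Q W' →
      Module.finrank F W = Module.finrank F W' → Even (Module.finrank F W) →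
      ¬ Plus Q W → ¬ Plus Q W' →
      ∃ e : W ≃ₗ[F] W', ∀ w : W, Q ((e w : W') : ι → F) = Q (w : ι → F)

/-- [PDER] `r = p`: an isometry of order `p` of `quadFormOdd d F` all of whose invariant
nondegenerate `m`-spaces (`m` even) are of plus type. -/
def PkgPDer : Prop :=
  ∀ (F : Type u) [Field F] [Fintype F] (p : ℕ) [Fact p.Prime] [CharP F p], p ≠ 2 →
    ∀ d m : ℕ, 1 ≤ d → Even m →
      ∃ x : GL (Unit ⊕ (Fin d ⊕ Fin d)) F, x ∈ Cfsg.isometryGroup F (Cfsg.quadFormOdd d F) ∧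
        orderOf x = p ∧
        ∀ W : Submodule F (Unit ⊕ (Fin d ⊕ Fin d) → F), Module.finrank F ↥W = m →
          Cfsg.Geo.IsNondegenerateOn (QuadraticMap.polar (Cfsg.quadFormOdd d F)) W →
          W.map (Matrix.toLin' (x : Matrix (Unit ⊕ (Fin d ⊕ Fin d)) (Unit ⊕ (Fin d ⊕ Fin d)) F)) ≤ W →
          Cfsg.Geo.IsPlusTypeOn (Cfsg.quadFormOdd d F) W

/-- [PCRITE] criterion, first kind: `(x - 1)² = 0` and the fixed space is spanned by the moved
space and one more vector. -/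
def PkgPCritE : Prop :=
  ∀ (F : Type u) [Field F] (ι : Type) [Fintype ι] [DecidableEq ι]
    (Q : (ι → F) → F), Cfsg.Geo.IsNondegenerateQuadraticForm Q → (2 : F) ≠ 0 →
    ∀ x : Matrix ι ι F, (∀ v, Q (x *ᵥ v) = Q v) → (x - 1) * (x - 1) = 0 →
    (∃ t : ι → F, fixSp x ≤ movSp x ⊔ Submodule.span F {t}) →
    ∀ W : Submodule F (ι → F), Inv x W → Nd Q W → Even (Module.finrank F W) → Plus Q W

/-- [PCRITO] criterion, second kind: the fixed space is totally singular and `(x - 1)²` has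
rank at most one. -/
def PkgPCritO : Prop :=
  ∀ (F : Type u) [Field F] (ι : Type) [Fintype ι] [DecidableEq ι]
    (Q : (ι → F) → F), Cfsg.Geo.IsNondegenerateQuadraticForm Q → (2 : F) ≠ 0 →
    ∀ x : Matrix ι ι F, (∀ v, Q (x *ᵥ v) = Q v) →
    (∀ v, x *ᵥ v = v → Q v = 0) →
    (∃ t : ι → F, ∀ v, ((x - 1) * (x - 1)) *ᵥ v ∈ Submodule.span F {t}) →
    ∀ W : Submodule F (ι → F), Inv x W → Nd Q W → Even (Module.finrank F W) → Plus Q W

/-- [PELTE] the element for even `d`. -/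
def PkgPEltE : Prop :=
  ∀ (F : Type u) [Field F] [Fintype F] (p : ℕ) [Fact p.Prime] [CharP F p], p ≠ 2 →
    ∀ d : ℕ, 1 ≤ d → Even d →
      ∃ x : GL (Unit ⊕ (Fin d ⊕ Fin d)) F, x ∈ Cfsg.isometryGroup F (Cfsg.quadFormOdd d F) ∧
        orderOf x = p ∧
        ((x : Matrix (Unit ⊕ (Fin d ⊕ Fin d)) (Unit ⊕ (Fin d ⊕ Fin d)) F) - 1) *
          ((x : Matrix (Unit ⊕ (Fin d ⊕ Fin d)) (Unit ⊕ (Fin d ⊕ Fin d)) F) - 1) = 0 ∧
        ∃ t : Unit ⊕ (Fin d ⊕ Fin d) → F,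
          fixSp (x : Matrix (Unit ⊕ (Fin d ⊕ Fin d)) (Unit ⊕ (Fin d ⊕ Fin d)) F) ≤
            movSp (x : Matrix (Unit ⊕ (Fin d ⊕ Fin d)) (Unit ⊕ (Fin d ⊕ Fin d)) F) ⊔
              Submodule.span F {t}

/-- [PELTO] the element for odd `d`. -/
def PkgPEltO : Prop :=
  ∀ (F : Type u) [Field F] [Fintype F] (p : ℕ) [Fact p.Prime] [CharP F p], p ≠ 2 →
    ∀ d : ℕ, Odd d →
      ∃ x : GL (Unit ⊕ (Fin d ⊕ Fin d)) F, x ∈ Cfsg.isometryGroup F (Cfsg.quadFormOdd d F) ∧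
        orderOf x = p ∧
        (∀ v, (x : Matrix (Unit ⊕ (Fin d ⊕ Fin d)) (Unit ⊕ (Fin d ⊕ Fin d)) F) *ᵥ v = v →
          Cfsg.quadFormOdd d F v = 0) ∧
        ∃ t : Unit ⊕ (Fin d ⊕ Fin d) → F, ∀ v,
          (((x : Matrix (Unit ⊕ (Fin d ⊕ Fin d)) (Unit ⊕ (Fin d ⊕ Fin d)) F) - 1) *
            ((x : Matrix (Unit ⊕ (Fin d ⊕ Fin d)) (Unit ⊕ (Fin d ⊕ Fin d)) F) - 1)) *ᵥ v ∈
              Submodule.span F {t}

end Cfsg.Agent.Lib.Helper55.OEll
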