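-- Team project OELL (S5993): assembly of the statement from the packages (helper55).
import Cfsg.Agent.Lib.Helper55.OEll.Defs

set_option autoImplicit false
open scoped MatrixGroups
open Matrix

namespace Cfsg.Agent.Lib.Helper55.OEll

open Cfsg.Agent.Lib.Helper23.OHyp

universe u

theorem cc_even' (q r : ℕ) : Even (cc q r) := by
  unfold cc
  split_ifs with h
  · exact h
  · exact even_two_mul _

theorem ordI_pos' {q r : ℕ} (hr : r.Prime) (hq : ¬ r ∣ q) : 0 < ordI q r := by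
  unfold ordI
  have : Fact r.Prime := ⟨hr⟩
  rw [orderOf_pos_iff, isOfFinOrder_iff_pow_eq_one]
  refine ⟨r - 1, by have := hr.two_le; omega, ?_⟩
  apply ZMod.pow_card_sub_one_eq_one
  rwa [Ne, ZMod.natCast_eq_zero_iff]

theorem cc_pos' {q r : ℕ} (hr : r.Prime) (hq : ¬ r ∣ q) : 0 < cc q r := by
  have h := ordI_pos' hr hq
  unfold cc
  split_ifs <;> omega

/-- [INVOLG] gives [INVOLM]. -/
theorem pkgInvolM_of_G (h : PkgInvolG.{u}) : PkgInvolM.{u} := by
  intro F _ _ ι _ _ Q hQ h2 x hx hx2 m hme hm2 hmn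
  obtain ⟨W, h1, h2', h3, h4⟩ := h F ι Q hQ h2 x hx hx2 m False hme hmn (by omega) (by omega)
  exact ⟨W, ⟨h1, h2', fun hp => h3.mp hp⟩, h4⟩

/-- [INVOLG] gives the OHYP package [INVOL]. -/
theorem pkgInvol_of_G (h : PkgInvolG.{u}) : PkgInvol.{u} := by
  intro F _ _ ι _ _ Q hQ h2 x hx hx2 m hme hmn h3
  obtain ⟨W, h1, h2', h3', h4⟩ := h F ι Q hQ h2 x hx hx2 m True hme hmn h3 (fun _ => trivial)
  exact ⟨W, ⟨h1, h2', h3'.mpr trivial⟩, h4⟩

/-- [CNTG] gives [CNTM]. -/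
theorem pkgCntM_of_G (h : PkgCntG.{u}) : PkgCntM.{u} := by
  intro F _ _ ι _ _ Q hQ h2 hodd r hr hr2 hrq m hme hm2 hmc hmk
  have := h F ι Q hQ h2 hodd r hr hr2 hrq m False hme (by omega) hmc hmk
  rw [Nat.card_congr (Equiv.subtypeEquivRight (q := fun W : Submodule F (ι → F) =>
    Module.finrank F ↥W = m ∧ Cfsg.Geo.IsNondegenerateOn (QuadraticMap.polar Q) W ∧
      (Cfsg.Geo.IsPlusTypeOn Q W ↔ False)) (fun W => by simp))]
  exact this

/-- [CNTG] gives the OHYP package [CNT]. -/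
theorem pkgCnt_of_G (h : PkgCntG.{u}) : PkgCnt.{u} := by
  intro F _ _ ι _ _ Q hQ h2 hodd r hr hr2 hrq m hme hmc hmk
  have := h F ι Q hQ h2 hodd r hr hr2 hrq m True hme (fun _ => trivial) hmc hmk
  rw [Nat.card_congr (Equiv.subtypeEquivRight (q := fun W : Submodule F (ι → F) =>
    Module.finrank F ↥W = m ∧ Cfsg.Geo.IsNondegenerateOn (QuadraticMap.polar Q) W ∧
      (Cfsg.Geo.IsPlusTypeOn Q W ↔ True)) (fun W => by simp))]
  exact this

section generic

variable {F : Type u} [Field F] [Fintype F] {ι : Type} [Fintype ι] [DecidableEq ι]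

/-- FIX: under the numeric conditions an element of order `r` fixes an elliptic `m`-space. -/
theorem fix_of (hSplit : PkgSplit.{u}) (hSum : PkgSum.{u}) (hGeom : PkgGeom.{u})
    (hDiv : PkgDiv.{u}) (hSub : PkgSub.{u})
    (Q : (ι → F) → F) (r : ℕ) (x : Matrix ι ι F) (hstd : Std Q r x)
    (m : ℕ) (hme : Even m) (hmn : m + 1 ≤ Fintype.card ι)
    (hnum : m % cc (Fintype.card F) r < Fintype.card ι % cc (Fintype.card F) r)
    (hty : m % cc (Fintype.card F) r = 0 →
      ¬ (Odd (ordI (Fintype.card F) r) ∨ Even (m / ordI (Fintype.card F) r))) :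
    ∃ W : Submodule F (ι → F), Module.finrank F W = m ∧ Nd Q W ∧ ¬ Plus Q W ∧ Inv x W := by
  obtain ⟨hNdC, hNdN, hPerp, hCompl, hInvN, -⟩ := hSplit F ι Q r x hstd
  obtain ⟨hcdvd, -⟩ := hDiv F ι Q r x hstd (movSp x) le_rfl hInvN hNdN
  have hdim : Module.finrank F (fixSp x) + Module.finrank F (movSp x) = Fintype.card ι := by
    rw [Submodule.finrank_add_eq_of_isCompl hCompl, Module.finrank_fintype_fun_eq_card]
  set c := cc (Fintype.card F) r with hc
  set i := ordI (Fintype.card F) r with hi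
  have hceven : Even c := cc_even' _ _
  obtain ⟨jx, hjx⟩ := hcdvd
  have hj'le : c * min jx (m / c) ≤ Module.finrank F (movSp x) := by
    rw [hjx]; exact Nat.mul_le_mul_left c (min_le_left _ _)
  obtain ⟨W₁, hW₁le, hInv₁, hNd₁, hdim₁⟩ :=
    hSub F ι Q r x hstd (movSp x) le_rfl hInvN hNdN (min jx (m / c)) hj'le
  obtain ⟨-, hPlus₁⟩ := hDiv F ι Q r x hstd W₁ hW₁le hInv₁ hNd₁
  have hcj'm : c * min jx (m / c) ≤ m :=
    (Nat.mul_le_mul_left c (min_le_right _ _)).trans (Nat.mul_div_le m c)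
  have he_even : Even (m - c * min jx (m / c)) :=
    (Nat.even_sub hcj'm).mpr ⟨fun _ => hceven.mul_right _, fun _ => hme⟩
  have he1 : m - c * min jx (m / c) + 1 ≤ Module.finrank F (fixSp x) := by
    rcases le_total jx (m / c) with h | h
    · rw [min_eq_left h]
      rw [min_eq_left h] at hcj'm
      omega
    · rw [min_eq_right h]
      have h1 : m - c * (m / c) = m % c := by
        have := Nat.div_add_mod m c
        omega
      rw [h1]
      have h2 : Fintype.card ι % c ≤ Module.finrank F (fixSp x) := by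
        rw [← hdim, hjx, Nat.add_mul_mod_self_left]
        exact Nat.mod_le _ _
      omega
  have hε : m - c * min jx (m / c) = 0 → ¬ Plus Q W₁ := by
    intro he0
    have hm' : m = c * min jx (m / c) := by omega
    rw [hPlus₁, hdim₁, ← hm']
    apply hty
    rw [hm']
    exact Nat.mul_mod_right _ _
  obtain ⟨W₀, hW₀le, hNd₀, hdim₀, hPlus₀⟩ :=
    hGeom F ι Q hstd.nondeg hstd.two (fixSp x) hNdC (m - c * min jx (m / c)) (¬ Plus Q W₁)
      he_even he1 hε
  have hPerp01 : Perp Q W₀ W₁ := fun u hu v hv => hPerp u (hW₀le hu) v (hW₁le hv)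
  obtain ⟨hNdW, hdimW, hPlusW⟩ := hSum F ι Q hstd.nondeg hstd.two W₀ W₁ hNd₀ hNd₁ hPerp01
  have hdimfin : Module.finrank F ↥(W₀ ⊔ W₁) = m := by
    rw [hdimW, hdim₀, hdim₁]
    exact Nat.sub_add_cancel hcj'm
  refine ⟨W₀ ⊔ W₁, hdimfin, hNdW, ?_, ?_⟩
  · rw [hPlusW (by rw [hdim₀]; exact he_even) (by rw [hdim₁]; exact hceven.mul_right _)]
    tauto
  · show Submodule.map (Matrix.toLin' x) (W₀ ⊔ W₁) ≤ W₀ ⊔ W₁
    rw [Submodule.map_sup]
    apply sup_le
    · refine le_trans ?_ le_sup_left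
      rintro _ ⟨v, hv, rfl⟩
      have hv' : v ∈ fixSp x := hW₀le hv
      have : (Matrix.toLin' x) v = v := by
        have h0 : (Matrix.toLin' x - 1) v = 0 := hv'
        rw [LinearMap.sub_apply, Module.End.one_apply, sub_eq_zero] at h0
        exact h0
      rw [this]
      exact hv
    · exact le_trans hInv₁ le_sup_right

/-- DER: an invariant elliptic `m`-space of an element with small odd-dimensional fixed space. -/
theorem der_of (hSplit : PkgSplit.{u}) (hDiv : PkgDiv.{u})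
    (Q : (ι → F) → F) (r : ℕ) (x : Matrix ι ι F) (hstd : Std Q r x)
    (hk : Module.finrank F (fixSp x) < cc (Fintype.card F) r)
    (hkodd : Odd (Module.finrank F (fixSp x)))
    (m : ℕ) (hme : Even m) (W : Submodule F (ι → F)) (hWdim : Module.finrank F W = m)
    (hNd : Nd Q W) (hnP : ¬ Plus Q W) (hInv : Inv x W) :
    m % cc (Fintype.card F) r < Module.finrank F (fixSp x) ∧
      (m % cc (Fintype.card F) r = 0 →
        Even (ordI (Fintype.card F) r) ∧ Odd (m / ordI (Fintype.card F) r)) := by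
  obtain ⟨-, -, -, -, -, hW⟩ := hSplit F ι Q r x hstd
  obtain ⟨-, hNdWN, hInvWN, hsup, hdimsum⟩ := hW W hInv hNd
  obtain ⟨hcdvd, hPlusN⟩ := hDiv F ι Q r x hstd (W ⊓ movSp x) inf_le_right hInvWN hNdWN
  set c := cc (Fintype.card F) r with hc
  set i := ordI (Fintype.card F) r with hi
  have hceven : Even c := cc_even' _ _
  obtain ⟨t, ht⟩ := hcdvd
  have ha : Module.finrank F ↥(W ⊓ fixSp x) ≤ Module.finrank F (fixSp x) :=
    Submodule.finrank_mono inf_le_right
  have hmod : m % c = Module.finrank F ↥(W ⊓ fixSp x) := by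
    rw [← hWdim, hdimsum, ht, Nat.add_mul_mod_self_left]
    exact Nat.mod_eq_of_lt (lt_of_le_of_lt ha hk)
  have haeven : Even (Module.finrank F ↥(W ⊓ fixSp x)) := by
    have h1 : Even (Module.finrank F ↥(W ⊓ fixSp x) + c * t) := by
      rw [← ht, ← hdimsum, hWdim]; exact hme
    exact (Nat.even_add.mp h1).mpr (hceven.mul_right _)
  refine ⟨?_, ?_⟩
  · rw [hmod]
    rcases lt_or_eq_of_le ha with h | h
    · exact h
    · exfalso
      rw [h] at haeven
      exact (Nat.not_even_iff_odd.mpr hkodd) haeven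
  · intro h0
    rw [hmod] at h0
    have hbot : W ⊓ fixSp x = ⊥ := Submodule.finrank_eq_zero.mp h0
    have hWN : W ⊓ movSp x = W := by
      rw [hbot, bot_sup_eq] at hsup
      exact hsup
    rw [hWN, hWdim] at hPlusN
    rw [hPlusN] at hnP
    rw [not_or] at hnP
    exact ⟨Nat.not_odd_iff_even.mp hnP.1, Nat.not_even_iff_odd.mp hnP.2⟩

end generic

/-- The OELL assembly: statement S5993 from the packages. -/
theorem main_of {F : Type u} [Field F] [Fintype F] {p : ℕ} [Fact p.Prime] [CharP F p] {q : ℕ}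
    (hQnd : PkgQnd.{u}) (hSplit : PkgSplit.{u}) (hSum : PkgSum.{u}) (hGeom : PkgGeom.{u})
    (hDiv : PkgDiv.{u}) (hSub : PkgSub.{u}) (hExist : PkgExist.{u})
    (hOddOmega : PkgOddOmega.{u}) (hInvolM : PkgInvolM.{u}) (hCntM : PkgCntM.{u})
    (hPDer : PkgPDer.{u})
    (hq : Fintype.card F = q) (hqodd : Odd q)
    (d m : ℕ) (hd : 3 ≤ d) (hm : 2 ≤ m) (hme : Even m) (hmn : m ≤ 2 * d)
    (r : ℕ) [Fact r.Prime]
    (hrΩ : r ∣ Nat.card {W : Submodule F (Unit ⊕ (Fin d ⊕ Fin d) → F) // Module.finrank F ↥W = m ∧ Cfsg.Geo.IsNondegenerateOn (QuadraticMap.polar (Cfsg.quadFormOdd d F)) W ∧ ¬ Cfsg.Geo.IsPlusTypeOn (Cfsg.quadFormOdd d F) W})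
    (i c : ℕ) (hi : i = orderOf (q : ZMod r)) (hc : c = if Even i then i else 2 * i) :
    (∀ x : GL (Unit ⊕ (Fin d ⊕ Fin d)) F, x ∈ Cfsg.Geo.omegaGL (Cfsg.quadFormOdd d F) → orderOf x = r →
      ∃ W : Submodule F (Unit ⊕ (Fin d ⊕ Fin d) → F), (Module.finrank F ↥W = m ∧ Cfsg.Geo.IsNondegenerateOn (QuadraticMap.polar (Cfsg.quadFormOdd d F)) W ∧ ¬ Cfsg.Geo.IsPlusTypeOn (Cfsg.quadFormOdd d F) W) ∧ W.map (Matrix.toLin' (x : Matrix (Unit ⊕ (Fin d ⊕ Fin d)) (Unit ⊕ (Fin d ⊕ Fin d)) F)) ≤ W) ↔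
    (r = 2 ∨
     (r ≠ p ∧ 2 < r ∧ Odd i ∧ c ≤ m ∧ 0 < m % c ∧ m % c < (2 * d + 1) % c) ∨
     (r ≠ p ∧ 2 < r ∧ Even i ∧ i ≤ m ∧ m % c < (2 * d + 1) % c ∧ (0 < m % c ∨ Odd (m / i)))) := by
  classical
  subst hq
  have hp : p.Prime := Fact.out
  have hr : r.Prime := Fact.out
  obtain ⟨a, -, hcard⟩ := FiniteField.card F p
  have hp2 : p ≠ 2 := by
    rintro rfl
    rw [hcard] at hqodd
    exact (Nat.not_even_iff_odd.mpr hqodd) (Nat.even_pow.mpr ⟨even_two, a.ne_zero⟩)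
  have h2 : (2 : F) ≠ 0 := by
    intro h
    have h' : p ∣ 2 := (CharP.cast_eq_zero_iff F p 2).mp (by exact_mod_cast h)
    exact hp2 ((Nat.prime_dvd_prime_iff_eq hp Nat.prime_two).mp h')
  have hQ := hQnd F h2 d
  have hcardι : Fintype.card (Unit ⊕ (Fin d ⊕ Fin d)) = 2 * d + 1 := by
    simp only [Fintype.card_sum, Fintype.card_unit, Fintype.card_fin]; omega
  have hi' : i = ordI (Fintype.card F) r := hi
  subst hi'
  have hc' : c = cc (Fintype.card F) r := hc
  subst hc'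
  have hnodd : Odd (Fintype.card (Unit ⊕ (Fin d ⊕ Fin d))) := by
    rw [hcardι]; exact odd_two_mul_add_one d
  have hceven := cc_even' (Fintype.card F) r
  -- facts for `r ≠ p`
  have key : r ≠ p → ¬ r ∣ Fintype.card F ∧ (r : F) ≠ 0 := by
    intro hrp
    refine ⟨?_, ?_⟩
    · rw [hcard]; intro h
      exact hrp ((Nat.prime_dvd_prime_iff_eq hr hp).mp (hr.dvd_of_dvd_pow h))
    · intro h
      have h' : p ∣ r := (CharP.cast_eq_zero_iff F p r).mp h
      exact hrp ((Nat.prime_dvd_prime_iff_eq hp hr).mp h').symm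
  have hstd_of : r ≠ 2 → r ≠ p → ∀ x : GL (Unit ⊕ (Fin d ⊕ Fin d)) F,
      x ∈ Cfsg.isometryGroup F (Cfsg.quadFormOdd d F) → orderOf x = r →
      Std (Cfsg.quadFormOdd d F) r
        (x : Matrix (Unit ⊕ (Fin d ⊕ Fin d)) (Unit ⊕ (Fin d ⊕ Fin d)) F) := by
    intro hr2 hrp x hx hxo
    refine ⟨hQ, h2, hr, hr2, (key hrp).1, (key hrp).2, ?_, fun v => hx v v⟩
    have h1 := pow_orderOf_eq_one x
    rw [hxo] at h1
    have h3 := congrArg Units.val h1
    simpa using h3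
  constructor
  · intro hall
    by_cases hr2 : r = 2
    · exact Or.inl hr2
    right
    have hrodd : Odd r := hr.odd_of_ne_two hr2
    have hrp : r ≠ p := by
      rintro rfl
      obtain ⟨x, hx, hxo, hxW⟩ := hPDer F r hp2 d m (by omega) hme
      have hxΩ := hOddOmega F _ _ hQ h2 x hx (by rw [hxo]; exact hrodd)
      obtain ⟨W, ⟨hW1, hW2, hW3⟩, hW4⟩ := hall x hxΩ hxo
      exact hW3 (hxW W hW1 hW2 hW4)
    have hrq : ¬ r ∣ Fintype.card F := (key hrp).1
    have hr2' : 2 < r := lt_of_le_of_ne hr.two_le (Ne.symm hr2)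
    have hcpos := cc_pos' hr hrq
    have hcnt : ¬ (m < cc (Fintype.card F) r ∧ m < (2 * d + 1) % cc (Fintype.card F) r) := by
      rintro ⟨h1, h2'⟩
      exact hCntM F _ _ hQ h2 hnodd r hr hr2 hrq m hme hm h1 (by rw [hcardι]; exact h2') hrΩ
    have hcle : cc (Fintype.card F) r ≤ 2 * d := by
      by_contra hlt
      apply hcnt
      have h3 : 2 * d + 1 < cc (Fintype.card F) r := by
        obtain ⟨t, ht⟩ := hceven; omega
      exact ⟨by omega, by rw [Nat.mod_eq_of_lt h3]; omega⟩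
    have hkodd : Odd ((2 * d + 1) % cc (Fintype.card F) r) := by
      rw [Nat.odd_iff, Nat.mod_mod_of_dvd _ hceven.two_dvd]; omega
    have hJ : 1 ≤ (2 * d + 1) / cc (Fintype.card F) r :=
      (Nat.one_le_div_iff hcpos).mpr (by omega)
    have hdm := Nat.div_add_mod (2 * d + 1) (cc (Fintype.card F) r)
    have hJ1 : cc (Fintype.card F) r * ((2 * d + 1) / cc (Fintype.card F) r) + 1 ≤ 2 * d + 1 := by
      have := hkodd.pos
      omega
    obtain ⟨x, hx, hxo, hxdim⟩ := hExist F _ _ hQ h2 hnodd r hr hr2 hrq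
      ((2 * d + 1) / cc (Fintype.card F) r) hJ (by rw [hcardι]; exact hJ1)
    have hxΩ := hOddOmega F _ _ hQ h2 x hx (by rw [hxo]; exact hrodd)
    obtain ⟨W, ⟨hW1, hW2, hW3⟩, hW4⟩ := hall x hxΩ hxo
    have hstd := hstd_of hr2 hrp x hx hxo
    have hfix : Module.finrank F (fixSp (x : Matrix (Unit ⊕ (Fin d ⊕ Fin d))
        (Unit ⊕ (Fin d ⊕ Fin d)) F)) = (2 * d + 1) % cc (Fintype.card F) r := by
      rw [hcardι] at hxdim
      omega
    obtain ⟨hlt, h0⟩ := der_of hSplit hDiv _ r _ hstd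
      (by rw [hfix]; exact Nat.mod_lt _ hcpos) (by rw [hfix]; exact hkodd) m hme W hW1 hW2 hW3 hW4
    rw [hfix] at hlt
    have hcm : cc (Fintype.card F) r ≤ m := by
      by_contra hlt'
      rw [not_le] at hlt'
      exact hcnt ⟨hlt', by rwa [Nat.mod_eq_of_lt hlt'] at hlt⟩
    by_cases hie : Even (ordI (Fintype.card F) r)
    · right
      have hci : cc (Fintype.card F) r = ordI (Fintype.card F) r := by
        unfold cc; rw [if_pos hie]
      refine ⟨hrp, hr2', hie, by rw [← hci]; exact hcm, hlt, ?_⟩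
      by_cases hl0 : m % cc (Fintype.card F) r = 0
      · right; exact (h0 hl0).2
      · left; omega
    · left
      refine ⟨hrp, hr2', Nat.not_even_iff_odd.mp hie, hcm, ?_, hlt⟩
      by_contra hl0
      have hl0' : m % cc (Fintype.card F) r = 0 := by omega
      exact hie (h0 hl0').1
  · intro hrhs x hxΩ hxo
    have hx : x ∈ Cfsg.isometryGroup F (Cfsg.quadFormOdd d F) :=
      Subgroup.map_subtype_le _ hxΩ
    rcases hrhs with rfl | hrhs
    · have hx2 : x ^ 2 = 1 := by rw [← hxo]; exact pow_orderOf_eq_one x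
      exact hInvolM F _ _ hQ h2 x hx hx2 m hme hm (by rw [hcardι]; omega)
    · have hbase : r ≠ p ∧ 2 < r ∧
          m % cc (Fintype.card F) r < (2 * d + 1) % cc (Fintype.card F) r ∧
          (m % cc (Fintype.card F) r = 0 →
            ¬ (Odd (ordI (Fintype.card F) r) ∨ Even (m / ordI (Fintype.card F) r))) := by
        rcases hrhs with ⟨h1, h2', hio, -, h5, h6⟩ | ⟨h1, h2', hie, -, h5, h6⟩
        · exact ⟨h1, h2', h6, fun h => by omega⟩
        · refine ⟨h1, h2', h5, fun h => ?_⟩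
          rcases h6 with h6 | h6
          · omega
          · rw [not_or]
            exact ⟨Nat.not_odd_iff_even.mpr hie, Nat.not_even_iff_odd.mpr h6⟩
      obtain ⟨hrp, hr2', hnum, hty⟩ := hbase
      have hstd := hstd_of (by omega) hrp x hx hxo
      obtain ⟨W, hW1, hW2, hW3, hW4⟩ := fix_of hSplit hSum hGeom hDiv hSub _ r _ hstd m hme
        (by rw [hcardι]; omega) (by rw [hcardι]; exact hnum) hty
      exact ⟨W, ⟨hW1, hW2, hW3⟩, hW4⟩

/-- helper8's shape of [PDER] (with `x ∈ omegaGL`) gives the interface shape. -/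
theorem pkgPDer_of_omega
    (h : ∀ {F : Type u} [Field F] [Fintype F] {p : ℕ} [Fact p.Prime] [CharP F p], p ≠ 2 →
      ∀ d m : ℕ, 1 ≤ d → Even m →
      ∃ x : GL (Unit ⊕ (Fin d ⊕ Fin d)) F, x ∈ Cfsg.Geo.omegaGL (Cfsg.quadFormOdd d F) ∧
        orderOf x = p ∧
        ∀ W : Submodule F (Unit ⊕ (Fin d ⊕ Fin d) → F), Module.finrank F ↥W = m →
          Cfsg.Geo.IsNondegenerateOn (QuadraticMap.polar (Cfsg.quadFormOdd d F)) W →
          W.map (Matrix.toLin' x.val) ≤ W → Cfsg.Geo.IsPlusTypeOn (Cfsg.quadFormOdd d F) W) :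
    PkgPDer.{u} := by
  intro F _ _ p _ _ hp2 d m hd hme
  obtain ⟨x, hx, hxo, hxW⟩ := h (F := F) (p := p) hp2 d m hd hme
  exact ⟨x, Subgroup.map_subtype_le _ hx, hxo, hxW⟩

/-- [PDER] from the criteria and the two elements. -/
theorem pkgPDer_of (hE : PkgPCritE.{u}) (hO : PkgPCritO.{u}) (hEE : PkgPEltE.{u})
    (hEO : PkgPEltO.{u}) (hQnd : PkgQnd.{u}) : PkgPDer.{u} := by
  intro F _ _ p _ _ hp2 d m hd hme
  have hp : p.Prime := Fact.out
  have h2 : (2 : F) ≠ 0 := by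
    intro h
    have h' : p ∣ 2 := (CharP.cast_eq_zero_iff F p 2).mp (by exact_mod_cast h)
    exact hp2 ((Nat.prime_dvd_prime_iff_eq hp Nat.prime_two).mp h')
  have hQ := hQnd F h2 d
  rcases Nat.even_or_odd d with hde | hdo
  · obtain ⟨x, hx, hxo, hN, ht⟩ := hEE F p hp2 d hd hde
    refine ⟨x, hx, hxo, fun W hW1 hW2 hW3 => ?_⟩
    exact hE F _ _ hQ h2 _ (fun v => hx v v) hN ht W hW3 hW2 (by rw [hW1]; exact hme)
  · obtain ⟨x, hx, hxo, hK, ht⟩ := hEO F p hp2 d hdo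
    refine ⟨x, hx, hxo, fun W hW1 hW2 hW3 => ?_⟩
    exact hO F _ _ hQ h2 _ (fun v => hx v v) hK ht W hW3 hW2 (by rw [hW1]; exact hme)

end Cfsg.Agent.Lib.Helper55.OEll
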